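import Cfsg.Agent.Lib.Lead.Knorr3
import Cfsg.Agent.Lib.H4.Extend

/-!
# The Weil character through the Heisenberg group
-/

set_option autoImplicit false

open scoped ComplexConjugate
open Cfsg Cfsg.Agent.H3 Cfsg.Agent.H4

namespace Cfsg.Agent.Lead

variable {p : ℕ} [hp : Fact p.Prime] {H : Type*} [Group H] {W : Type*} [AddCommGroup W]
  [Module (ZMod p) W]

/-- An invariant alternating form. -/
structure AltForm (ρ : Representation (ZMod p) H W) where
  /-- the form -/
  A : LinearMap.BilinForm (ZMod p) W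
  alt : ∀ x, A x x = 0
  inv : ∀ g x y, A (ρ g x) (ρ g y) = A x y

variable {ρ : Representation (ZMod p) H W}

theorem AltForm.skew (a : AltForm ρ) (x y : W) : a.A x y = -a.A y x := by
  have := a.alt (x + y)
  simp only [map_add, LinearMap.add_apply, a.alt] at this
  linear_combination this

/-- The Heisenberg group extended by `H`. -/
@[ext] structure Heis (a : AltForm ρ) where
  /-- vector part -/
  w : W
  /-- central part -/
  z : ZMod p
  /-- part in `H` -/
  h : H

namespace Heis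

variable {a : AltForm ρ}

instance : Mul (Heis a) := ⟨fun x y => ⟨x.w + ρ x.h y.w, x.z + y.z + a.A x.w (ρ x.h y.w), x.h * y.h⟩⟩
instance : One (Heis a) := ⟨⟨0, 0, 1⟩⟩
instance : Inv (Heis a) := ⟨fun x => ⟨-ρ x.h⁻¹ x.w, -x.z, x.h⁻¹⟩⟩

@[simp] theorem mul_w (x y : Heis a) : (x * y).w = x.w + ρ x.h y.w := rfl
@[simp] theorem mul_z (x y : Heis a) : (x * y).z = x.z + y.z + a.A x.w (ρ x.h y.w) := rfl
@[simp] theorem mul_h (x y : Heis a) : (x * y).h = x.h * y.h := rfl
@[simp] theorem one_w : (1 : Heis a).w = 0 := rfl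
@[simp] theorem one_z : (1 : Heis a).z = 0 := rfl
@[simp] theorem one_h : (1 : Heis a).h = 1 := rfl
@[simp] theorem inv_w (x : Heis a) : x⁻¹.w = -ρ x.h⁻¹ x.w := rfl
@[simp] theorem inv_z (x : Heis a) : x⁻¹.z = -x.z := rfl
@[simp] theorem inv_h (x : Heis a) : x⁻¹.h = x.h⁻¹ := rfl

instance : Group (Heis a) := Group.ofLeftAxioms
  (fun x y t => by
    ext
    · simp [add_assoc]
    · simp only [mul_z, mul_w, mul_h, map_add, map_mul, Module.End.mul_apply, LinearMap.add_apply,
        a.inv]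
      ring
    · simp [mul_assoc])
  (fun x => by ext <;> simp)
  (fun x => by ext <;> simp [a.alt])

/-- The coordinates. -/
def equivProd (a : AltForm ρ) : Heis a ≃ W × ZMod p × H where
  toFun x := (x.w, x.z, x.h)
  invFun x := ⟨x.1, x.2.1, x.2.2⟩
  left_inv _ := rfl
  right_inv _ := rfl

instance [Finite W] [Finite H] : Finite (Heis a) := Finite.of_equiv _ (equivProd a).symm

/-- Central elements. -/
def zc (a : AltForm ρ) (z : ZMod p) : Heis a := ⟨0, z, 1⟩

theorem zc_mem_center (z : ZMod p) : zc a z ∈ Subgroup.center (Heis a) := by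
  rw [Subgroup.mem_center_iff]
  intro g
  ext <;> simp [zc, add_comm]

theorem zc_add (z z' : ZMod p) : zc a (z + z') = zc a z * zc a z' := by
  ext <;> simp [zc]

/-- The Heisenberg group over a subspace. -/
def Esub (a : AltForm ρ) (C : Submodule (ZMod p) W) : Subgroup (Heis a) where
  carrier := {x | x.h = 1 ∧ x.w ∈ C}
  mul_mem' := fun {x y} hx hy => ⟨by simp [hx.1, hy.1], by simpa [hx.1] using add_mem hx.2 hy.2⟩
  one_mem' := ⟨rfl, zero_mem C⟩
  inv_mem' := fun {x} hx => ⟨by simp [hx.1], by simpa [hx.1] using hx.2⟩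

/-- The coordinates. -/
def esubEquiv (a : AltForm ρ) (C : Submodule (ZMod p) W) : C × ZMod p ≃ Esub a C where
  toFun x := ⟨⟨x.1, x.2, 1⟩, rfl, x.1.2⟩
  invFun x := (⟨x.1.w, x.2.2⟩, x.1.z)
  left_inv _ := rfl
  right_inv x := Subtype.ext (Heis.ext rfl rfl x.2.1.symm)

theorem card_Esub (C : Submodule (ZMod p) W) : Nat.card (Esub a C) = Nat.card C * p := by
  rw [← Nat.card_congr (esubEquiv a C), Nat.card_prod, Nat.card_zmod]

instance : (Esub a ⊤).Normal := ⟨fun n hn g => ⟨by simp [hn.1], trivial⟩⟩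

theorem conj_eq (u : W) (y : Heis a) (hu : ρ y.h u = u) :
    (⟨u, 0, 1⟩ : Heis a) * y * (⟨u, 0, 1⟩ : Heis a)⁻¹ = zc a (2 * a.A u y.w) * y := by
  ext
  · simp [hu, zc]
  · simp [hu, zc, a.alt, a.skew y.w u]; ring
  · simp [zc]

theorem central_mul {G : Type*} [Group G] [Finite G] {χ : G → ℂ} (hχ : IsIrrCharacter G χ)
    {z : G} (hz : z ∈ Subgroup.center G) {c : ℂ} (hc : χ z = χ 1 * c) (g : G) :
    χ (z * g) = c * χ g := by
  obtain ⟨ω, -, hω⟩ := IsCharacter_mul_of_norm_eq (IsIrrCharacter_isCharacter hχ)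
    (IsIrrCharacter_norm_eq_of_mem_center hχ hz)
  have h1 := hω 1
  rw [mul_one, hc, mul_comm] at h1
  rw [hω, mul_right_cancel₀ (IsIrrCharacter_apply_one_ne_zero hχ) h1]

theorem stdAddChar_two_mul_ne_one (h2 : (2 : ZMod p) ≠ 0) {t : ZMod p} (ht : t ≠ 0) :
    (ZMod.stdAddChar (2 * t) : ℂ) ≠ 1 := fun h =>
  mul_ne_zero h2 ht (ZMod.injective_stdAddChar (h.trans (AddChar.map_zero_eq_one _).symm))

open Classical in
theorem exists_char [Finite W] [Finite H] (h2 : (2 : ZMod p) ≠ 0) (C : Submodule (ZMod p) W)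
    (hnd : ∀ x ∈ C, (∀ y ∈ C, a.A x y = 0) → x = 0) :
    ∃ (θ : Esub a C → ℂ) (n : ℕ), IsIrrCharacter _ θ ∧ n ^ 2 = Nat.card C ∧
      ∀ x, θ x = if x.1.w = 0 then (n : ℂ) * ZMod.stdAddChar x.1.z else 0 := by
  have := Fintype.ofFinite (Esub a C)
  have := Fintype.ofFinite C
  set e := ZMod.stdAddChar (N := p)
  let z' : ZMod p → Esub a C := fun z => ⟨zc a z, rfl, zero_mem C⟩
  have hz' : ∀ z, z' z ∈ Subgroup.center (Esub a C) := fun z =>
    Subgroup.mem_center_iff.2 fun g => Subtype.ext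
      (Subgroup.mem_center_iff.1 (zc_mem_center (a := a) z) g.1)
  have hzx : ∀ x : Esub a C, x.1.w = 0 → x = z' x.1.z := fun x hx =>
    Subtype.ext (Heis.ext hx rfl x.2.1)
  have hsum : ∀ F : Esub a C → ℂ, (∀ x, x.1.w ≠ 0 → F x = 0) → ∑ x, F x = ∑ z, F (z' z) := by
    intro F hF
    rw [← Equiv.sum_comp (esubEquiv a C), Fintype.sum_prod_type, Finset.sum_eq_single 0]
    · rfl
    · intro c _ hc
      exact Finset.sum_eq_zero fun z _ => hF _ fun h => hc (Subtype.ext h)
    · simp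
  let f : Esub a C → ℂ := fun x => if x.1.w = 0 then e x.1.z else 0
  have hf : IsClassFunction _ f := fun g h => by
    by_cases hg : g.1.w = 0
    · rw [hzx g hg, Subgroup.mem_center_iff.1 (hz' _) h, mul_inv_cancel_right]
    · have : (h * g * h⁻¹).1.w = g.1.w := by simp [h.2.1, g.2.1]
      simp only [f, this, hg, if_false]
  obtain ⟨θ, hθ⟩ := IsClassFunction_exists_irr hf (fun h => by simpa [f] using congrFun h 1)
  obtain ⟨n, hn0, hn⟩ := IsIrrCharacter_apply_one θ.2
  have hn' : (n : ℂ) ≠ 0 := by exact_mod_cast hn0.ne'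
  have hmul : ∀ z g, θ.1 (z' z * g) = θ.1 (z' z) / n * θ.1 g := fun z g =>
    central_mul θ.2 (hz' z) (by rw [hn]; field_simp) g
  let μ : AddChar (ZMod p) ℂ :=
    { toFun := fun z => θ.1 (z' z) / n
      map_zero_eq_one' := by
        rw [show z' 0 = 1 from rfl, hn, div_self hn']
      map_add_eq_mul' := fun z t => by
        rw [show z' (z + t) = z' z * z' t from Subtype.ext (zc_add z t), hmul]; ring }
  have hμ : ∀ z, θ.1 (z' z) = n * μ z := fun z => by
    show _ = n * (θ.1 (z' z) / n); field_simp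
  have hμe : ∀ z, μ z = e z := by
    have h1 : ∑ z, (e * μ⁻¹) z ≠ 0 := fun h0 => hθ (by
      rw [classInner, hsum _ fun x hx => by simp [f, hx]]
      have : ∀ z, f (z' z) * conj (θ.1 (z' z)) = n * (e * μ⁻¹) z := fun z => by
        rw [hμ, map_mul, map_natCast, ← AddChar.map_neg_eq_conj]
        simp [f, z', zc, AddChar.inv_apply]; ring
      simp only [this, ← Finset.mul_sum, h0, mul_zero])
    rw [Ne, AddChar.sum_eq_zero_iff_ne_zero, not_not] at h1
    have h3 : e * μ⁻¹ = 1 := h1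
    rw [mul_inv_eq_one] at h3
    intro z; rw [h3]
  have hvan : ∀ x : Esub a C, x.1.w ≠ 0 → θ.1 x = 0 := fun x hx => by
    obtain ⟨u, hu, hux⟩ : ∃ u ∈ C, a.A u x.1.w ≠ 0 := by
      by_contra h; push Not at h
      exact hx (hnd _ x.2.2 fun y hy => by rw [a.skew, h y hy, neg_zero])
    have h1 := IsIrrCharacter_isClassFunction θ.2 x ⟨⟨u, 0, 1⟩, rfl, hu⟩
    rw [show (⟨⟨u, 0, 1⟩, rfl, hu⟩ * x * ⟨⟨u, 0, 1⟩, rfl, hu⟩⁻¹ : Esub a C) =
      z' (2 * a.A u x.1.w) * x from Subtype.ext (conj_eq u x.1 (by simp [x.2.1])), hmul] at h1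
    have h3 : θ.1 (z' (2 * a.A u x.1.w)) / n = e (2 * a.A u x.1.w) := hμe _
    rw [h3, ← sub_eq_zero, ← sub_one_mul, mul_eq_zero, sub_eq_zero] at h1
    exact h1.resolve_left (stdAddChar_two_mul_ne_one h2 hux)
  refine ⟨θ, n, θ.2, ?_, fun x => ?_⟩
  · have h1 := IsIrrCharacter_classInner_self θ.2
    rw [classInner, hsum _ fun x hx => by simp [hvan x hx]] at h1
    have : ∀ z, θ.1 (z' z) * conj (θ.1 (z' z)) = n ^ 2 := fun z => by
      rw [hμ, hμe, map_mul, map_natCast, conj_stdAddChar, mul_mul_mul_comm,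
        ← AddChar.map_add_eq_mul]; simp [sq]
    simp only [this, Finset.sum_const, Finset.card_univ, ZMod.card, nsmul_eq_mul, card_Esub] at h1
    have hp0 : (p : ℂ) ≠ 0 := by exact_mod_cast hp.out.ne_zero
    have hC : (Nat.card C : ℂ) ≠ 0 := by exact_mod_cast (Nat.card_pos (α := C)).ne'
    push_cast at h1
    field_simp at h1
    exact_mod_cast h1
  · split_ifs with hx
    · rw [hzx x hx, hμ, hμe]; rfl
    · exact hvan x hx

end Heis

open Heis in
theorem exists_KGood_alt [Finite H] [Finite W] (h2 : (2 : ZMod p) ≠ 0)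
    (hc : p.Coprime (Nat.card H))
    {M : Ideal AlgInt} [hM : M.IsPrime] (hpM : (p : AlgInt) ∈ M)
    (ρ : Representation (ZMod p) H W) (A : LinearMap.BilinForm (ZMod p) W)
    (hA : ∀ g x y, A (ρ g x) (ρ g y) = A x y) (halt : ∀ x, A x x = 0)
    (hnd : ∀ x, (∀ y, A x y = 0) → x = 0) : ∃ ψ, KGood M ρ ψ := by
  classical
  let a : AltForm ρ := ⟨A, halt, hA⟩
  set e := ZMod.stdAddChar (N := p)
  have := Fintype.ofFinite (Heis a)
  have := Fintype.ofFinite W
  have hp0 : (p : ℂ) ≠ 0 := by exact_mod_cast hp.out.ne_zero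
  obtain ⟨θ, n, hθ, hn, hθv⟩ := exists_char (a := a) h2 ⊤ fun x _ hx => hnd x fun y => hx y trivial
  have hcard : Nat.card (Esub a ⊤) = Nat.card W * p := by
    rw [card_Esub, Nat.card_congr (Submodule.topEquiv (R := ZMod p) (M := W)).toEquiv]
  obtain ⟨χ, hχ, hχθ⟩ := exists_irr_extension_of_coprime (N := Esub a ⊤) hθ (fun g => by
      ext x
      rw [cj_apply, hθv, hθv]
      have h1 : (g * x * g⁻¹).w = ρ g.h x.1.w := by simp [x.2.1, rep_apply_inv_apply]
      by_cases hx : x.1.w = 0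
      · have h3 : (g * x * g⁻¹).z = x.1.z := by simp [x.2.1, rep_apply_inv_apply, hx, a.alt]
        simp only [h1, h3, hx, map_zero]
      · have : ρ g.h x.1.w ≠ 0 := fun h0 => hx (by
          rw [← rep_inv_apply_apply ρ g.h x.1.w, h0, map_zero])
        simp only [h1, hx, this, if_false]) (by
      have h1 := (Esub a ⊤).card_mul_index
      rw [hcard, Nat.card_congr (equivProd a), Nat.card_prod, Nat.card_prod, Nat.card_zmod,
        ← mul_assoc] at h1
      rw [Nat.eq_of_mul_eq_mul_left (Nat.mul_pos Nat.card_pos hp.out.pos) h1, hcard,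
        card_eq_pow_zmod p W, ← pow_succ]
      exact (hc.pow_left _).symm)
  have hχc := IsIrrCharacter_isCharacter hχ
  have hz : ∀ z g, χ (zc a z * g) = e z * χ g := fun z g => central_mul hχ (zc_mem_center z) (by
    have h1 := hχθ ⟨zc a z, rfl, trivial⟩
    have h3 := hχθ 1
    rw [hθv] at h1 h3
    simp only [zc, if_true, OneMemClass.coe_one, one_w, one_z, AddChar.map_zero_eq_one,
      mul_one] at h1 h3
    rw [h3]; exact h1) g
  have hvan : ∀ y : Heis a, ∀ u ∈ fixSp ρ y.h, A u y.w ≠ 0 → χ y = 0 := fun y u hu huy => by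
    have h1 := IsIrrCharacter_isClassFunction hχ y ⟨u, 0, 1⟩
    rw [conj_eq u y (mem_fixSp.1 hu), hz, ← sub_eq_zero, ← sub_one_mul, mul_eq_zero,
      sub_eq_zero] at h1
    exact h1.resolve_left (stdAddChar_two_mul_ne_one h2 huy)
  let ι : H →* Heis a :=
    { toFun := fun h => ⟨0, 0, h⟩
      map_one' := rfl
      map_mul' := fun g h => by ext <;> simp }
  have hndF : ∀ h, ∀ x ∈ fixSp ρ h, (∀ y ∈ fixSp ρ h, A x y = 0) → x = 0 := fun h x hx h0 =>
    nondeg_fixSp hc ρ A hA hnd h hx h0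
  have hee : ∀ z, e z * conj (e z) = 1 := fun z => by
    rw [conj_stdAddChar, ← AddChar.map_add_eq_mul]; simp
  refine exists_KGood_of_weil hc hpM ρ (ξ := fun h => χ (ι h))
    (char_mem_intChars (IsCharacter_comp ι hχc)) (fun h => char_mem_cmField hχc _)
    (fun h => ?_) fun h => ?_
  · have := Fintype.ofFinite (Esub a ⊤)
    have h1 := sum_coset_norm_of_res_irr (Esub a ⊤) hχc (by simpa only [hχθ] using hθ) (ι h)
    set R := LinearMap.range (ρ h - LinearMap.id : W →ₗ[ZMod p] W)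
    have h3 : ∀ x : Esub a ⊤, χ (x * ι h) * conj (χ (x * ι h)) =
        if x.1.w ∈ R then χ (ι h) * conj (χ (ι h)) else 0 := fun x => by
      split_ifs with hx
      · obtain ⟨u, hu⟩ := hx
        have h4 : (x : Heis a) * ι h = zc a (x.1.z + A u (ρ h u)) *
            ((⟨-u, 0, 1⟩ : Heis a) * ι h * (⟨-u, 0, 1⟩ : Heis a)⁻¹) := by
          ext
          · simp [ι, zc, ← hu, sub_eq_neg_add]
          · simp [ι, zc, a]
          · simp [ι, zc, x.2.1]
        rw [h4, hz, IsIrrCharacter_isClassFunction hχ, map_mul, mul_mul_mul_comm, hee, one_mul]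
      · obtain ⟨m, c, hm, hc1, hc2, hc3⟩ := exists_avg hc ρ h x.1.w
        obtain ⟨u, hu, hux⟩ : ∃ u ∈ fixSp ρ h, A u x.1.w ≠ 0 := by
          by_contra h0; push Not at h0
          have : c = 0 := hndF h c hc1 fun y hy => by
            rw [a.skew]; show -A y c = 0; rw [hc3 A hA y hy, h0 y hy]; simp
          rw [this, sub_zero] at hc2
          exact hx (by simpa [hm] using R.smul_mem m⁻¹ hc2)
        rw [hvan (x * ι h) u (by simpa [ι, x.2.1] using hu) (by simpa [ι] using hux), zero_mul]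
    simp only [h3] at h1
    rw [← Equiv.sum_comp (esubEquiv a ⊤), Fintype.sum_prod_type, hcard] at h1
    have h4 : ∑ x : (⊤ : Submodule (ZMod p) W), ∑ y : ZMod p,
        (if (esubEquiv a ⊤ (x, y)).1.w ∈ R then χ (ι h) * conj (χ (ι h)) else 0) =
        Nat.card R * (p * (χ (ι h) * conj (χ (ι h)))) := by
      rw [← Equiv.sum_comp (Submodule.topEquiv (R := ZMod p) (M := W)).toEquiv.symm]
      simp [esubEquiv, Finset.sum_ite, Fintype.card_subtype]
    have h5 : Nat.card R * Nat.card (fixSp ρ h) = Nat.card W := by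
      rw [card_eq_pow_zmod p R, card_eq_pow_zmod p (fixSp ρ h), card_eq_pow_zmod p W, ← pow_add,
        fixSp, LinearMap.finrank_range_add_finrank_ker]
    have hR : (Nat.card R : ℂ) ≠ 0 := by exact_mod_cast (Nat.card_pos (α := R)).ne'
    rw [h4, ← h5] at h1
    push_cast at h1
    apply mul_left_cancel₀ (mul_ne_zero hR hp0)
    linear_combination h1
  · obtain ⟨θ1, m, hθ1, hm, hθ1v⟩ := exists_char (a := a) h2 (fixSp ρ h) (hndF h)
    have := Fintype.ofFinite (Esub a (fixSp ρ h))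
    set D := Subgroup.centralizer ({ι h} : Set (Heis a))
    have hle : Esub a (fixSp ρ h) ≤ D := fun x hx => by
      rw [Subgroup.mem_centralizer_singleton_iff]
      ext <;> simp [ι, hx.1, mem_fixSp.1 hx.2]
    have hιD : ι h ∈ D := Subgroup.mem_centralizer_singleton_iff.2 rfl
    have h1 := comp_mem_intChars (Subgroup.inclusion hle)
      (mul_center_mem_intChars (IsCharacter_restrict D hχc) (z := ⟨ι h, hιD⟩)
        (Subgroup.mem_center_iff.2 fun g => Subtype.ext
          (Subgroup.mem_centralizer_singleton_iff.1 g.2)))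
    have h3 := intChars_classInner h1 (IsIrrCharacter_isCharacter hθ1)
    have hC : (Nat.card (fixSp ρ h) : ℂ) ≠ 0 := by
      exact_mod_cast (Nat.card_pos (α := fixSp ρ h)).ne'
    have h4 : classInner (fun x : Esub a (fixSp ρ h) => χ (ι h * x)) θ1 =
        χ (ι h) * m / Nat.card (fixSp ρ h) := by
      rw [classInner, ← Equiv.sum_comp (esubEquiv a _), Fintype.sum_prod_type,
        Finset.sum_eq_single 0]
      · have : ∀ z, χ (ι h * esubEquiv a (fixSp ρ h) (0, z)) *
            conj (θ1 (esubEquiv a (fixSp ρ h) (0, z))) = χ (ι h) * m := fun z => by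
          rw [hθ1v, show ((esubEquiv a (fixSp ρ h) (0, z) : Heis a)) = zc a z from rfl,
            Subgroup.mem_center_iff.1 (zc_mem_center z), hz]
          simp only [zc, if_true, map_mul, map_natCast]
          linear_combination (χ (ι h) * m) * hee z
        simp only [this, Finset.sum_const, Finset.card_univ, ZMod.card, nsmul_eq_mul, card_Esub]
        push_cast
        field_simp
      · intro c _ hc0
        refine Finset.sum_eq_zero fun z _ => ?_
        rw [hθ1v, if_neg (c := (esubEquiv a (fixSp ρ h) (c, z)).1.w = 0)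
          fun h0 => hc0 (Subtype.ext h0)]; simp
      · simp
    have h5 := h3.pow 2
    have h6 : (m : ℂ) ^ 2 = Nat.card (fixSp ρ h) := by exact_mod_cast hm
    convert h5 using 1
    refine Eq.trans ?_ (congrArg (· ^ 2) h4.symm)
    rw [div_pow, mul_pow, h6]
    field_simp

theorem exists_KGood_selfDual [Finite H] [Finite W] (hc : p.Coprime (Nat.card H))
    {M : Ideal AlgInt} [hM : M.IsPrime] (hpM : (p : AlgInt) ∈ M)
    (ρ : Representation (ZMod p) H W) (B : LinearMap.BilinForm (ZMod p) W)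
    (hB : ∀ g x y, B (ρ g x) (ρ g y) = B x y) (hnd : B.Nondegenerate) : ∃ ψ, KGood M ρ ψ := by
  by_cases h2 : (2 : ZMod p) = 0
  · obtain ⟨U, U', hc', hU, hU', ⟨A, a1, a2, a3⟩, -, htriv⟩ := selfDual_split_two (by
      rw [Ne, ZMod.natCast_eq_zero_iff]; exact (hp.out.coprime_iff_not_dvd).1 hc) h2 ρ B hnd hB
    obtain ⟨ψ, hψ⟩ := exists_KGood_two h2 hc hpM (Subrepresentation.toRepresentation (ρ := ρ)
      ⟨U, fun g v hv => hU g v hv⟩) (A.restrict U) (fun g x y => a2 g x x.2 y y.2)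
      (fun x => a1 x) fun x hx => Subtype.ext (a3 x x.2 fun y hy => hx ⟨y, hy⟩)
    refine ⟨_, KGood.of_isCompl ⟨U, fun g v hv => hU g v hv⟩ ⟨U', fun g v hv => hU' g v hv⟩ hc' hψ
      (ψ' := 1) ⟨one_mem _, fun _ _ => one_notMem_idealSet, fun h hh => ?_, fun _ => one_mem _,
      fun h => ⟨1, by simp, ?_⟩⟩⟩
    · exact (hh fun w => Subtype.ext (htriv h w.1 w.2)).elim
    · rw [one_mul]; exact Nat.card_le_card_of_injective _ Subtype.val_injective
  · obtain ⟨U, U', hc', hU, hU', ⟨A, a1, a2, a3⟩, ⟨S, s1, s2, s3⟩⟩ :=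
      selfDual_split_odd h2 ρ B hnd hB
    obtain ⟨ψ, hψ⟩ := exists_KGood_alt h2 hc hpM (Subrepresentation.toRepresentation (ρ := ρ)
      ⟨U, fun g v hv => hU g v hv⟩) (A.restrict U) (fun g x y => a2 g x x.2 y y.2)
      (fun x => a1 x) fun x hx => Subtype.ext (a3 x x.2 fun y hy => hx ⟨y, hy⟩)
    obtain ⟨ψ', hψ'⟩ := exists_KGood_quad hc hpM (Subrepresentation.toRepresentation (ρ := ρ)
      ⟨U', fun g v hv => hU' g v hv⟩) (S.restrict U') (fun g x y => s2 g x x.2 y y.2)
      fun x hx => Subtype.ext (s3 x x.2 fun y hy => by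
        have := hx ⟨y, hy⟩
        simp only [LinearMap.BilinForm.restrict_apply, LinearMap.domRestrict_apply] at this
        rw [s1 y, ← two_mul] at this
        exact (mul_eq_zero.1 this).resolve_left h2)
    exact ⟨_, KGood.of_isCompl _ _ hc' hψ hψ'⟩

end Cfsg.Agent.Lead
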