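import Cfsg.Agent.Lib.H3.Brauer2
import Cfsg.Agent.Lib.H3.Equiv

/-!
# Realizability of characters over subfields; Brauer's splitting field theorem
-/

set_option autoImplicit false

open scoped ComplexConjugate
open Module Cfsg Cfsg.Agent.H3 Cfsg.Agent.H4

namespace Cfsg.Agent.Lead

variable {G : Type*} [Group G]

section Field

variable {k V W : Type*} [Field k] [AddCommGroup V] [Module k V] [FiniteDimensional k V]
  [AddCommGroup W] [Module k W] [FiniteDimensional k W]

theorem char_add_of_isCompl {ρ : Representation k G V} {U U' : Subrepresentation ρ}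
    (h : IsCompl U U') :
    ρ.character = U.toRepresentation.character + U'.toRepresentation.character := by
  have h' : IsCompl U.toSubmodule U'.toSubmodule := by
    constructor
    · rw [disjoint_iff, ← Subrepresentation.toSubmodule_inf, disjoint_iff.mp h.1]; rfl
    · rw [codisjoint_iff, ← Subrepresentation.toSubmodule_sup, codisjoint_iff.mp h.2]; rfl
  have e : (U.toRepresentation.prod U'.toRepresentation).Equiv ρ :=
    Representation.Equiv.mk (Submodule.prodEquivOfIsCompl _ _ h') fun g => by
      apply LinearMap.ext
      rintro ⟨u, u'⟩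
      simp [Subrepresentation.toRepresentation, Representation.prod]
  rw [← Representation.char_iso e]
  funext g
  exact LinearMap.trace_prodMap' _ _

theorem char_range {ρ : Representation k G V} {σ : Representation k G W}
    (f : ρ.IntertwiningMap σ) (hf : Function.Injective f) :
    ρ.character = f.range.toRepresentation.character :=
  Representation.char_iso (Representation.Equiv.mk (LinearEquiv.ofInjective f.toLinearMap hf)
    fun g => by
      ext v
      exact f.isIntertwining _ _ g v)

end Field

theorem isCharacterOver_character (K : Subfield ℂ) {V : Type*} [AddCommGroup V] [Module K V]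
    [FiniteDimensional K V] (ρ : Representation K G V) :
    IsCharacterOver K.toSubring G (fun g => (ρ.character g : ℂ)) := by
  have := isCharacterOver_of_mat (K := K.toSubring)
    (K.subtype.mapMatrix.toMonoidHom.comp (matOfRep (finBasis K V) ρ))
    fun g i j => (matOfRep (finBasis K V) ρ g i j).2
  convert this using 2 with g
  rw [← trace_matOfRep (finBasis K V) ρ g]
  simp [Matrix.trace]

theorem IsCharacterOver.exists_rep {K : Subfield ℂ} {χ : G → ℂ}
    (h : IsCharacterOver K.toSubring G χ) :
    ∃ (n : ℕ) (ρ : Representation K G (Fin n → K)), ∀ g, (ρ.character g : ℂ) = χ g := by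
  obtain ⟨n, R, hR, e⟩ := h
  let R' : G →* Matrix (Fin n) (Fin n) K :=
    { toFun := fun g => Matrix.of fun i j => ⟨R g i j, hR g i j⟩
      map_one' := by
        ext i j
        by_cases h : i = j <;> simp [Matrix.one_apply, h]
      map_mul' := fun a b => by
        ext i j
        simp [Matrix.mul_apply] }
  refine ⟨n, repOfMat R', fun g => ?_⟩
  rw [character_repOfMat, ← e g]
  simp [Matrix.trace, R']

universe u

theorem isCharacterOver_cancel_aux [Finite G] (K : Subfield ℂ) {χ : G → ℂ} (hχ : IsCharacter G χ)
    (n : ℕ) : ∀ (V W : Type) [AddCommGroup V] [Module K V] [FiniteDimensional K V]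
      [AddCommGroup W] [Module K W] [FiniteDimensional K W]
      (ρ : Representation K G V) (σ : Representation K G W), finrank K W = n →
      (∀ g, (ρ.character g : ℂ) = χ g + σ.character g) → IsCharacterOver K.toSubring G χ := by
  induction n using Nat.strong_induction_on with
  | _ n ih =>
  intro V W _ _ _ _ _ _ ρ σ hn h
  have := Fintype.ofFinite G
  have hG : (Nat.card G : K) ≠ 0 := Nat.cast_ne_zero.2 Nat.card_pos.ne'
  have : NeZero (Nat.card G : K) := ⟨hG⟩
  have : Invertible (Nat.card G : K) := invertibleOfNonzero hG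
  have hσ := (isCharacterOver_character K σ).isCharacter
  by_cases h0 : (fun g => (σ.character g : ℂ)) = 0
  · convert isCharacterOver_character K ρ using 2 with g
    rw [h g, congrFun h0 g, Pi.zero_apply, add_zero]
  have h1 : 0 < finrank K (σ.IntertwiningMap ρ) := by
    refine Nat.pos_of_ne_zero fun e => h0 ?_
    have h2 := congrArg K.subtype (σ.card_inv_mul_sum_char_mul_char_eq_finrank ρ)
    rw [e] at h2
    have h3 : classInner (χ + fun g => (σ.character g : ℂ)) (fun g => (σ.character g : ℂ)) = 0 := by
      rw [← Nat.cast_zero, ← map_natCast K.subtype, ← h2, classInner]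
      simp only [map_mul, map_sum, map_inv₀, map_natCast, Subfield.coe_subtype, h, Pi.add_apply,
        ← IsCharacter_apply_inv hσ]
    obtain ⟨a, ha⟩ := IsCharacter_classInner hχ hσ
    obtain ⟨b, hb⟩ := IsCharacter_classInner hσ hσ
    rw [H3.classInner_add_left, ha, hb] at h3
    have h4 : a + b = 0 := by exact_mod_cast h3
    exact H3.classInner_self_eq_zero (by rw [hb, (by omega : b = 0), Nat.cast_zero])
  obtain ⟨f, hf⟩ := finrank_pos_iff_exists_ne_zero.mp h1
  obtain ⟨U, hU⟩ := exists_isCompl f.ker
  let i : U.toRepresentation.IntertwiningMap ρ :=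
    ⟨f.toLinearMap ∘ₗ U.toSubmodule.subtype, fun g => by
      ext v
      exact f.isIntertwining _ _ g v⟩
  have hi : Function.Injective i := (injective_iff_map_eq_zero i).2 fun v hv => by
    have : (v : W) ∈ f.ker ⊓ U := ⟨hv, v.2⟩
    rw [disjoint_iff.1 hU.1] at this
    exact Subtype.ext this
  obtain ⟨U', hU'⟩ := exists_isCompl i.range
  have e1 := char_add_of_isCompl hU
  have e2 := char_add_of_isCompl hU'
  rw [← char_range i hi] at e2
  have hlt : finrank K f.ker.toSubmodule < n := hn ▸ Submodule.finrank_lt fun e => hf (by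
    ext v
    have : v ∈ f.ker.toSubmodule := e ▸ Submodule.mem_top
    exact this)
  refine ih _ hlt _ _ U'.toRepresentation f.ker.toRepresentation rfl fun g => ?_
  have := h g
  rw [e1, e2, Pi.add_apply, Pi.add_apply, Subfield.coe_add, Subfield.coe_add] at this
  linear_combination this

/-- Characters over a subfield cancel. -/
theorem isCharacterOver_cancel [Finite G] {K : Subfield ℂ} {χ ψ : G → ℂ} (hχ : IsCharacter G χ)
    (hψ : IsCharacterOver K.toSubring G ψ) (h : IsCharacterOver K.toSubring G (χ + ψ)) :
    IsCharacterOver K.toSubring G χ := by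
  obtain ⟨n, σ, e⟩ := IsCharacterOver.exists_rep hψ
  obtain ⟨m, ρ, e'⟩ := IsCharacterOver.exists_rep h
  exact isCharacterOver_cancel_aux K hχ _ _ _ ρ σ rfl fun g => by rw [e, e', Pi.add_apply]

/-- Brauer's splitting field theorem. -/
theorem isCharacterOver_of_roots [Finite G] {K : Subfield ℂ}
    (hK : ∀ z : ℂ, z ^ Monoid.exponent G = 1 → z ∈ K) {χ : G → ℂ} (hχ : IsCharacter G χ) :
    IsCharacterOver K.toSubring G χ := by
  have := Fintype.ofFinite G
  obtain ⟨l, -, e⟩ := brauer_induction ⟨χ, 0, hχ, (IsCharacterOver.zero ⊤).isCharacter,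
    (sub_zero χ).symm⟩
  have key : ∀ l : List ((A : Subgroup G) × ((A →* ℂˣ) × ℤ)), ∃ a b,
      IsCharacterOver K.toSubring G a ∧ IsCharacterOver K.toSubring G b ∧
      (l.map fun t => (t.2.2 : ℂ) • indFun t.1 (fun a => (t.2.1 a : ℂ))).sum = a - b := by
    intro l
    induction l with
    | nil => exact ⟨0, 0, .zero _, .zero _, by simp⟩
    | cons t l ih =>
      obtain ⟨a, b, ha, hb, e⟩ := ih
      have ht : IsCharacterOver K.toSubring G (indFun t.1 (fun a => (t.2.1 a : ℂ))) :=
        IsCharacterOver.indFun _ (isCharacterOver_linear t.2.1 fun g => hK _ (by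
          rw [← Units.val_pow_eq_pow_val, ← map_pow,
            show g ^ Monoid.exponent G = 1 from Subtype.ext (Monoid.pow_exponent_eq_one (g : G)),
            map_one, Units.val_one]))
      refine ⟨t.2.2.toNat • _ + a, (-t.2.2).toNat • _ + b, (ht.nsmul _).add ha,
        (ht.nsmul _).add hb, ?_⟩
      rw [List.map_cons, List.sum_cons, e]
      conv_lhs => rw [← Int.toNat_sub_toNat_neg t.2.2]
      simp only [Int.cast_sub, Int.cast_natCast, sub_smul, Nat.cast_smul_eq_nsmul]
      abel
  obtain ⟨a, b, ha, hb, e'⟩ := key l
  refine isCharacterOver_cancel hχ hb ?_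
  rwa [e, e', sub_add_cancel]

end Cfsg.Agent.Lead
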